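import Cfsg.Agent.H656.LB.Sel

/-!
# S4879, row E8, modulo `Φ₅`: certificates with `28 = Λ²V` (helper656)

* `X8 i k` : multiplicities of `φ_i` (`i = 13` : `28`) in `1_{W_J}`, `J` = D4, A3+2A1, A3A2, A3A2A1, D4A2, D4A1, 2A2+2A1, 2A3;
* `Y8 i k` : multiplicities of the duals, `J` = ∅, A1, 2A1, A2, 3A1, A2+2A1, 4A1;
* `li8`, `liY8` : independence for `0, a, 9, c, 13`, `a ∈ {2, 3}`, `c ∈ {5, 6, 11, 12}`.
-/

set_option autoImplicit false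

namespace Cfsg.Agent.H656.LB

/-- multiplicities -/
def X8L : List (List ℤ) :=
  [[1, 1, 1, 1, 1, 1, 1, 1],
   [4, 3, 3, 2, 2, 3, 2, 2],
   [10, 8, 7, 5, 4, 7, 6, 4],
   [14, 14, 12, 9, 6, 10, 11, 7],
   [20, 17, 15, 10, 7, 13, 12, 8],
   [20, 14, 11, 6, 4, 11, 8, 4],
   [23, 20, 17, 10, 7, 14, 13, 8],
   [20, 19, 13, 9, 5, 12, 14, 5],
   [16, 24, 18, 13, 5, 10, 20, 8],
   [45, 37, 30, 16, 9, 24, 22, 11],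
   [36, 46, 37, 24, 13, 24, 34, 17],
   [56, 64, 48, 29, 13, 32, 44, 18],
   [60, 65, 49, 29, 13, 33, 44, 18],
   [6, 3, 3, 1, 1, 3, 1, 1]]

/-- multiplicities -/
def X8 (i : Fin 14) (k : Fin 8) : ℤ := (X8L.getD i []).getD k 0

/-- multiplicities, types D4A1, 2A2+2A1, 2A3 -/
def X5bL : List (List ℤ) :=
  [[1, 1, 1],
   [3, 2, 2],
   [7, 6, 4],
   [10, 11, 7],
   [13, 12, 8],
   [11, 8, 4],
   [14, 13, 8],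
   [12, 14, 5],
   [10, 20, 8],
   [24, 22, 11],
   [24, 34, 17],
   [32, 44, 18],
   [33, 44, 18]]

/-- multiplicities, types D4A1, 2A2+2A1, 2A3 -/
def X5b (i : Fin 13) (k : Fin 3) : ℤ := (X5bL.getD i []).getD k 0

/-- multiplicities of the duals -/
def Y8L : List (List ℤ) :=
  [[1, 0, 0, 0, 0, 0, 0],
   [8, 1, 0, 0, 0, 0, 0],
   [35, 7, 1, 0, 0, 0, 0],
   [84, 21, 5, 0, 1, 0, 0],
   [112, 28, 6, 1, 1, 0, 0],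
   [160, 48, 12, 6, 2, 0, 0],
   [210, 63, 17, 6, 4, 0, 1],
   [300, 105, 35, 15, 10, 1, 2],
   [448, 168, 64, 24, 24, 4, 8],
   [567, 189, 57, 27, 15, 1, 3],
   [700, 245, 85, 30, 29, 3, 10],
   [1344, 504, 184, 84, 64, 9, 20],
   [1400, 525, 190, 90, 65, 9, 20],
   [28, 7, 1, 1, 0, 0, 0]]

/-- multiplicities of the duals -/
def Y8 (i : Fin 14) (k : Fin 7) : ℤ := (Y8L.getD i []).getD k 0

/-- certificates modulo 2 -/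
def C8 : List (ℕ × List (List ℤ)) :=
  [(82, [[1, 1, 0, 0, 0, 0, 1, 0], [0, 0, 0, 1, 0, 0, 1, 0], [0, 1, 0, 0, 0, 0, 1, 0], [0, 0, 1, 1, 0, 0, 0, 0], [1, 1, 0, 0, 0, 0, 0, 0]]),
   (98, [[1, 1, 0, 0, 0, 0, 1, 0], [0, 0, 1, 0, 0, 0, 1, 0], [0, 1, 1, 1, 0, 0, 1, 0], [0, 0, 1, 1, 0, 0, 0, 0], [1, 1, 1, 1, 0, 0, 0, 0]]),
   (178, [[1, 1, 0, 0, 0, 0, 1, 0], [0, 0, 1, 0, 0, 0, 1, 0], [0, 1, 0, 0, 0, 0, 1, 0], [0, 0, 1, 1, 0, 0, 0, 0], [1, 1, 0, 0, 0, 0, 0, 0]]),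
   (194, [[1, 0, 0, 0, 0, 0, 1, 1], [0, 1, 1, 0, 0, 0, 1, 1], [0, 0, 0, 0, 0, 0, 1, 1], [0, 1, 0, 0, 0, 0, 0, 1], [1, 0, 0, 0, 0, 0, 0, 1]]),
   (83, [[1, 0, 0, 1, 0, 0, 0, 1], [0, 1, 0, 0, 0, 0, 0, 1], [0, 0, 0, 1, 0, 0, 0, 1], [0, 1, 1, 1, 0, 0, 0, 1], [1, 1, 0, 0, 0, 0, 0, 0]]),
   (99, [[1, 1, 1, 0, 0, 0, 0, 0], [0, 1, 1, 1, 1, 0, 0, 0], [0, 0, 1, 0, 1, 0, 0, 0], [0, 1, 0, 0, 1, 0, 0, 0], [1, 0, 0, 0, 1, 0, 0, 0]]),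
   (179, [[1, 1, 1, 0, 0, 0, 0, 0], [0, 1, 1, 1, 1, 0, 0, 0], [0, 1, 1, 0, 0, 0, 0, 0], [0, 1, 0, 0, 1, 0, 0, 0], [1, 1, 0, 0, 0, 0, 0, 0]]),
   (195, [[1, 1, 1, 0, 0, 0, 0, 0], [0, 0, 1, 1, 0, 0, 0, 0], [0, 1, 1, 0, 0, 0, 0, 0], [0, 0, 0, 1, 0, 0, 1, 0], [1, 1, 0, 1, 0, 0, 1, 0]])]

/-- certificates modulo 3 -/
def CY8 : List (ℕ × List (List ℤ)) :=
  [(82, [[1, 1, 0, 1, 1, 0, 0], [0, 1, 0, 2, 0, 0, 0], [0, 0, 0, 0, 0, 1, 0], [0, 0, 0, 0, 2, 0, 0], [0, 0, 0, 1, 0, 0, 0]]),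
   (98, [[1, 1, 0, 1, 0, 0, 0], [0, 1, 0, 2, 0, 0, 0], [0, 0, 0, 0, 0, 1, 0], [0, 1, 2, 0, 0, 0, 0], [0, 0, 0, 1, 0, 0, 0]]),
   (178, [[1, 1, 0, 1, 0, 0, 0], [0, 1, 0, 2, 0, 0, 0], [0, 0, 0, 0, 0, 1, 0], [0, 2, 1, 0, 0, 0, 0], [0, 0, 0, 1, 0, 0, 0]]),
   (194, [[1, 0, 1, 1, 0, 0, 0], [0, 1, 0, 2, 0, 0, 0], [0, 0, 0, 0, 0, 1, 0], [0, 2, 1, 0, 0, 0, 0], [0, 0, 0, 1, 0, 0, 0]]),
   (83, [[1, 1, 1, 0, 1, 0, 0], [0, 1, 2, 0, 0, 0, 0], [0, 0, 0, 0, 0, 1, 0], [0, 1, 2, 0, 2, 0, 0], [0, 1, 0, 0, 0, 0, 0]]),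
   (99, [[1, 2, 0, 0, 0, 0, 0], [0, 1, 2, 0, 0, 0, 2], [0, 0, 0, 0, 0, 1, 0], [0, 0, 0, 0, 0, 0, 1], [0, 1, 0, 0, 0, 0, 0]]),
   (179, [[1, 2, 0, 0, 0, 0, 0], [0, 2, 1, 0, 2, 0, 0], [0, 0, 0, 0, 0, 1, 0], [0, 1, 2, 0, 2, 0, 0], [0, 1, 0, 0, 0, 0, 0]]),
   (195, [[1, 2, 0, 0, 0, 0, 2], [0, 1, 2, 0, 0, 0, 2], [0, 0, 0, 0, 0, 1, 0], [0, 0, 0, 0, 0, 0, 2], [0, 1, 0, 0, 0, 0, 0]])]

/-- certificate check -/
def chk2 (l : ℤ) (L : List (List ℤ)) (t : List ℕ) (cols : List (List ℤ)) : Bool :=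
  (List.range t.length).all fun i => (List.range t.length).all fun j =>
    (dot (L.getD (t.getD i 0) []) (cols.getD j []) - if i = j then 1 else 0) % l == 0

/-- look up -/
def look2 (C : List (ℕ × List (List ℤ))) (n : ℕ) : List (List ℤ) := ((C.find? fun z => z.1 == n).map Prod.snd).getD []

theorem ok8 : ([2, 3].all fun a => [5, 6, 11, 12].all fun c => chk2 2 X8L [0, a, 9, c, 13] (look2 C8 (a + 16 * c))) = true := by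
  decide +kernel

theorem okY8 : ([2, 3].all fun a => [5, 6, 11, 12].all fun c => chk2 3 Y8L [0, a, 9, c, 13] (look2 CY8 (a + 16 * c))) = true := by
  decide +kernel

theorem X8_row : ∀ i : Fin 14, List.ofFn (X8 i) = X8L.getD i [] := by decide +kernel

theorem Y8_row : ∀ i : Fin 14, List.ofFn (Y8 i) = Y8L.getD i [] := by decide +kernel

theorem li_of_chk2 (l : ℕ) [Fact l.Prime] {n m : ℕ} (L : List (List ℤ)) (f : Fin 14 → Fin m → ℤ)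
    (hf : ∀ i : Fin 14, List.ofFn (f i) = L.getD i []) (t : Fin n → Fin 14) (tl : List ℕ)
    (hl : tl = List.ofFn fun i => (t i : ℕ)) (cols : List (List ℤ)) (h : chk2 l L tl cols = true) :
    LinearIndependent ℂ fun i => fun k => (f (t i) k : ℂ) := by
  refine li_of_chk l (fun i => f (t i)) (fun j => cols.getD j []) fun i j => ?_
  unfold chk2 at h
  rw [List.all_eq_true] at h
  have hlen : tl.length = n := by rw [hl, List.length_ofFn]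
  have h1 := h i (List.mem_range.2 (by rw [hlen]; exact i.2))
  rw [List.all_eq_true] at h1
  have h2 := h1 j (List.mem_range.2 (by rw [hlen]; exact j.2))
  rw [beq_iff_eq] at h2
  have h3 : tl.getD i 0 = (t i : ℕ) := by
    rw [hl, List.getD_eq_getElem?_getD, List.getElem?_ofFn]
    simp
  rw [h3] at h2
  rw [hf]
  convert h2 using 3
  simp [Fin.ext_iff]

instance : Fact (Nat.Prime 2) := ⟨by norm_num⟩

theorem li8 (a c : Fin 14) (ha : (a : ℕ) ∈ [2, 3]) (hc : (c : ℕ) ∈ [5, 6, 11, 12]) :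
    LinearIndependent ℂ fun i : Fin 5 => fun k => (X8 ((![0, a, 9, c, 13] : Fin 5 → Fin 14) i) k : ℂ) := by
  have h := List.all_eq_true.1 (List.all_eq_true.1 ok8 _ ha) _ hc
  exact li_of_chk2 2 X8L X8 X8_row _ _ (by simp [List.ofFn_succ]) _ h

theorem liY8 (a c : Fin 14) (ha : (a : ℕ) ∈ [2, 3]) (hc : (c : ℕ) ∈ [5, 6, 11, 12]) :
    LinearIndependent ℂ fun i : Fin 5 => fun k => (Y8 ((![0, a, 9, c, 13] : Fin 5 → Fin 14) i) k : ℂ) := by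
  have h := List.all_eq_true.1 (List.all_eq_true.1 okY8 _ ha) _ hc
  exact li_of_chk2 3 Y8L Y8 Y8_row _ _ (by simp [List.ofFn_succ]) _ h

end Cfsg.Agent.H656.LB
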